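import Cfsg.Agent.Lib.Helper60.J3.Spec3
import Cfsg.Agent.Lib.Helper60.J3.LineChkAll

/-!
The orbits of the matrix group on the lines of the 9-space over the field with four elements:
the line through the first basis vector has exactly 23256 images, and the isotropic lines form
one orbit.  Vectors are packed as matrices whose only nonzero row is the first one.
-/

set_option autoImplicit false

namespace Cfsg.Agent.Lib.Helper60.J3

/-- the vector coded by a natural number -/
def vecOf (m : ℕ) : Fin 9 → F4 := fun j => ⟨m.testBit (2 * j.val + 1), m.testBit (2 * j.val)⟩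

/-- the matrix whose first row is a given vector -/
def Row (u : Fin 9 → F4) : Mat := Matrix.of fun i j => if i = 0 then u j else 0

theorem toMat_row {m : ℕ} (hm : m < 2 ^ 18) : toMat m = Row (vecOf m) := by
  refine Matrix.ext fun i j => ?_
  by_cases hi : i = 0
  · subst hi
    simp [toMat, Row, vecOf]
  · have h18 : 1 ≤ i.val := by
      rcases Nat.eq_zero_or_pos i.val with h | h
      · exact absurd (Fin.ext h) hi
      · exact h
    have e1 : m.testBit (18 * i.val + 2 * j.val + 1) = false :=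
      Nat.testBit_lt_two_pow (lt_of_lt_of_le hm (Nat.pow_le_pow_right (by norm_num) (by omega)))
    have e2 : m.testBit (18 * i.val + 2 * j.val) = false :=
      Nat.testBit_lt_two_pow (lt_of_lt_of_le hm (Nat.pow_le_pow_right (by norm_num) (by omega)))
    simp only [toMat, Row, Matrix.of_apply, if_neg hi, e1, e2]
    rfl

theorem Row_mul (u : Fin 9 → F4) (M : Mat) : Row u * M = Row (Matrix.vecMul u M) := by
  refine Matrix.ext fun i j => ?_
  rw [Matrix.mul_apply]
  by_cases hi : i = 0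
  · subst hi
    simp [Row, Matrix.vecMul, dotProduct]
  · simp [Row, hi]

theorem Row_mul_transpose (u : Fin 9 → F4) (M : Mat) :
    Row u * M.transpose = Row (Matrix.mulVec M u) := by
  rw [Row_mul, Matrix.vecMul_transpose]

theorem Row_inj {u v : Fin 9 → F4} (h : Row u = Row v) : u = v := by
  funext j
  have := congrFun (congrFun h 0) j
  simpa [Row] using this

theorem Row_smul (c : F4) (u : Fin 9 → F4) : Row (c • u) = c • Row u := by
  refine Matrix.ext fun i j => ?_
  by_cases hi : i = 0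
  · simp [Row, hi]
  · simp [Row, hi]

theorem toMat_omul (B : ℕ) : toMat (omul B) = F4.ω • toMat B := by
  ext i j
  · rw [Matrix.smul_apply, smul_eq_mul, F4.mul_hi]
    change (omul B).testBit (18 * i.val + 2 * j.val + 1) =
      ((F4.ω.lo && B.testBit (18 * i.val + 2 * j.val + 1)) ^^
        (F4.ω.hi && (B.testBit (18 * i.val + 2 * j.val + 1) ^^ B.testBit (18 * i.val + 2 * j.val))))
    have e : 18 * i.val + 2 * j.val = 2 * (9 * i.val + j.val) := by omega
    rw [e, omul_hi B _ (by omega)]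
    simp [F4.ω]
  · rw [Matrix.smul_apply, smul_eq_mul, F4.mul_lo]
    change (omul B).testBit (18 * i.val + 2 * j.val) =
      ((F4.ω.lo && B.testBit (18 * i.val + 2 * j.val)) ^^
        (F4.ω.hi && B.testBit (18 * i.val + 2 * j.val + 1)))
    have e : 18 * i.val + 2 * j.val = 2 * (9 * i.val + j.val) := by omega
    rw [e, omul_lo B _ (by omega)]
    simp [F4.ω]

theorem scal_spec {a r : ℕ} (h : scal a r = true) :
    ∃ c : F4, c ≠ 0 ∧ toMat a = c • toMat r := by
  simp only [scal, Bool.or_eq_true] at h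
  rcases h with (h | h) | h
  · exact ⟨1, by decide, by rw [Nat.eq_of_beq_eq_true h, one_smul]⟩
  · exact ⟨F4.ω, by decide, by rw [Nat.eq_of_beq_eq_true h, toMat_omul]⟩
  · exact ⟨F4.ω * F4.ω, by decide, by
      rw [Nat.eq_of_beq_eq_true h, toMat_omul, toMat_omul, smul_smul]⟩

theorem F4_units : ∀ c : F4, c ≠ 0 → c = 1 ∨ c = F4.ω ∨ c = F4.ω * F4.ω := by decide

theorem canon_eq_of_toMat {a b : ℕ} (h : toMat a = toMat b) : canon a = canon b :=
  toMat_inj (canon_lt a) (canon_lt b) (by rw [toMat_canon, toMat_canon, h])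

theorem orbV_lt (k : ℕ) : orbV k < 2 ^ 18 := by
  unfold orbV
  exact Nat.and_lt_two_pow _ (by norm_num)

theorem isoV_lt (k : ℕ) : isoV k < 2 ^ 18 := by
  unfold isoV
  exact Nat.and_lt_two_pow _ (by norm_num)

theorem vecOf_zero : vecOf 0 = 0 := by
  funext j
  simp [vecOf]
  rfl

theorem vecOf_one : vecOf 1 = Pi.single 0 1 := by decide

theorem vecOf_inj {a b : ℕ} (ha : a < 2 ^ 18) (hb : b < 2 ^ 18) (h : vecOf a = vecOf b) :
    a = b := by
  apply Nat.eq_of_testBit_eq
  intro n
  by_cases hn : n < 18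
  · have hj : n / 2 < 9 := by omega
    have h1 := congrFun h ⟨n / 2, hj⟩
    rcases Nat.mod_two_eq_zero_or_one n with h2 | h2
    · have e : n = 2 * (n / 2) := by omega
      have := congrArg F4.lo h1
      change a.testBit (2 * (n / 2)) = b.testBit (2 * (n / 2)) at this
      rw [← e] at this
      exact this
    · have e : n = 2 * (n / 2) + 1 := by omega
      have := congrArg F4.hi h1
      change a.testBit (2 * (n / 2) + 1) = b.testBit (2 * (n / 2) + 1) at this
      rw [← e] at this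
      exact this
  · have hp : (2 : ℕ) ^ 18 ≤ 2 ^ n := Nat.pow_le_pow_right (by norm_num) (by omega)
    rw [Nat.testBit_lt_two_pow (lt_of_lt_of_le ha hp), Nat.testBit_lt_two_pow (lt_of_lt_of_le hb hp)]

theorem vecOf_surj (u : Fin 9 → F4) : ∃ m < 2 ^ 18, vecOf m = u := by
  have hinj : Function.Injective (fun m : Fin (2 ^ 18) => vecOf m.val) := by
    intro a b h
    exact Fin.ext (vecOf_inj a.isLt b.isLt h)
  have hcard : Fintype.card (Fin (2 ^ 18)) = Fintype.card (Fin 9 → F4) := by
    rw [Fintype.card_fin, Fintype.card_fun, F4.card_eq, Fintype.card_fin]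
    norm_num
  have hbij := (Fintype.bijective_iff_injective_and_card _).mpr ⟨hinj, hcard⟩
  obtain ⟨m, hm⟩ := hbij.2 u
  exact ⟨m.val, m.isLt, hm⟩

theorem F4_cube : ∀ a : F4, a ^ 3 = ⟨false, a.lo || a.hi⟩ := by decide

theorem xor9 : ∀ b0 b1 b2 b3 b4 b5 b6 b7 b8 : Bool,
    ((((((((((false ^^ b0) ^^ b1) ^^ b2) ^^ b3) ^^ b4) ^^ b5) ^^ b6) ^^ b7) ^^ b8)) =
      xor b0 (xor b1 (xor b2 (xor b3 (xor b4 (xor b5 (xor b6 (xor b7 b8))))))) := by decide

theorem iso_spec (m : ℕ) (h : ∑ j : Fin 9, (vecOf m j) ^ 3 = 0) : oddW m = false := by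
  have hs : ∑ j : Fin 9, (vecOf m j) ^ 3 =
      ∑ j ∈ Finset.range 9, (⟨false, nzb m j⟩ : F4) := by
    rw [← Fin.sum_univ_eq_sum_range (fun j => (⟨false, nzb m j⟩ : F4)) 9]
    refine Finset.sum_congr rfl fun j _ => ?_
    rw [F4_cube]
    rfl
  rw [hs] at h
  simp only [Finset.sum_range_succ, Finset.sum_range_zero] at h
  have h2 := congrArg F4.lo h
  simp only [F4.add_lo, F4.zero_lo] at h2
  rw [xor9] at h2
  exact h2

section
variable {𝒢 : Type*} [Group 𝒢] {ψ : 𝒢 →* Mat} (hψ : Function.Injective ψ) {x y : 𝒢}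
  (hx : ψ x = toMat Xp) (hy : ψ y = toMat Yp)

include hx in
theorem x_transpose : (ψ x).transpose = toMat XTp := by rw [hx, XTp_eq]

include hy in
theorem y_transpose : (ψ y).transpose = toMat YTp := by rw [hy, YTp_eq]

include hx hy in
theorem orb_real : ∀ k < 23256, ∃ g ∈ Hg x y, toMat (orbV k) = toMat (orbV 0) * (ψ g).transpose := by
  intro k
  induction k using Nat.strong_induction_on with
  | _ k ih =>
    intro hk
    rcases Nat.eq_zero_or_pos k with rfl | hpos
    · exact ⟨1, (Hg x y).one_mem, by rw [map_one, Matrix.transpose_one, mul_one]⟩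
    · obtain ⟨k', rfl⟩ : ∃ k', k = k' + 1 := ⟨k - 1, by omega⟩
      have h := chkOT_all k' (by omega)
      simp only [chkOT, Bool.and_eq_true, Nat.blt_eq, Nat.succ_eq_add_one] at h
      obtain ⟨hp, h2⟩ := h
      obtain ⟨g, hg, hgv⟩ := ih _ hp (lt_trans hp hk)
      split at h2
      · refine ⟨x * g, (Hg x y).mul_mem (x_mem x y) hg, ?_⟩
        rw [map_mul, Matrix.transpose_mul, ← mul_assoc, ← hgv, x_transpose hx, ← toMat_mulP,
          Nat.eq_of_beq_eq_true h2]
      · refine ⟨y * g, (Hg x y).mul_mem (y_mem x y) hg, ?_⟩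
        rw [map_mul, Matrix.transpose_mul, ← mul_assoc, ← hgv, y_transpose hy, ← toMat_mulP,
          Nat.eq_of_beq_eq_true h2]

include hx hy in
theorem iso_real : ∀ k < 43605, ∃ g ∈ Hg x y, toMat (isoV k) = toMat (isoV 0) * (ψ g).transpose := by
  intro k
  induction k using Nat.strong_induction_on with
  | _ k ih =>
    intro hk
    rcases Nat.eq_zero_or_pos k with rfl | hpos
    · exact ⟨1, (Hg x y).one_mem, by rw [map_one, Matrix.transpose_one, mul_one]⟩
    · obtain ⟨k', rfl⟩ : ∃ k', k = k' + 1 := ⟨k - 1, by omega⟩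
      have h := chkIT_all k' (by omega)
      simp only [chkIT, Bool.and_eq_true, Nat.blt_eq, Nat.succ_eq_add_one] at h
      obtain ⟨hp, h2⟩ := h
      obtain ⟨g, hg, hgv⟩ := ih _ hp (lt_trans hp hk)
      split at h2
      · refine ⟨x * g, (Hg x y).mul_mem (x_mem x y) hg, ?_⟩
        rw [map_mul, Matrix.transpose_mul, ← mul_assoc, ← hgv, x_transpose hx, ← toMat_mulP,
          Nat.eq_of_beq_eq_true h2]
      · refine ⟨y * g, (Hg x y).mul_mem (y_mem x y) hg, ?_⟩
        rw [map_mul, Matrix.transpose_mul, ← mul_assoc, ← hgv, y_transpose hy, ← toMat_mulP,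
          Nat.eq_of_beq_eq_true h2]

include hψ hx hy in
theorem orb_cover : ∀ g ∈ Hg x y, ∃ k < 23256, ∃ c : F4, c ≠ 0 ∧
    toMat (orbV 0) * (ψ g).transpose = c • toMat (orbV k) := by
  apply closure_left_ind'
  · intro g hg
    rcases hg with rfl | rfl
    · exact isOfFinOrder_iff_pow_eq_one.mpr ⟨17, by norm_num, x_pow hψ hx⟩
    · exact isOfFinOrder_iff_pow_eq_one.mpr ⟨17, by norm_num, y_pow hψ hy⟩
  · exact ⟨0, by norm_num, 1, by decide, by rw [map_one, Matrix.transpose_one, mul_one, one_smul]⟩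
  · rintro g hg h ⟨k, hk, c, hc, hv⟩
    have hC := chkOC_all k hk
    simp only [chkOC, Bool.and_eq_true, Nat.blt_eq] at hC
    obtain ⟨⟨⟨h1, h2⟩, h3⟩, h4⟩ := hC
    rcases hg with hg | hg
    · obtain ⟨c', hc', hv'⟩ := scal_spec h2
      refine ⟨oNX k, h1, c * c', mul_ne_zero hc hc', ?_⟩
      rw [hg, map_mul, Matrix.transpose_mul, ← mul_assoc, hv, x_transpose hx, Matrix.smul_mul,
        ← toMat_mulP, hv', smul_smul]
    · rw [Set.mem_singleton_iff] at hg
      obtain ⟨c', hc', hv'⟩ := scal_spec h4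
      refine ⟨oNY k, h3, c * c', mul_ne_zero hc hc', ?_⟩
      rw [hg, map_mul, Matrix.transpose_mul, ← mul_assoc, hv, y_transpose hy, Matrix.smul_mul,
        ← toMat_mulP, hv', smul_smul]

theorem orb_inj (k k' : ℕ) (hk : k < 23256) (hk' : k' < 23256) (c : F4) (hc : c ≠ 0)
    (h : toMat (orbV k') = c • toMat (orbV k)) : k = k' := by
  have hD := chkOD_all k hk
  have hD' := chkOD_all k' hk'
  simp only [chkOD, Bool.and_eq_true, Nat.succ_eq_add_one] at hD hD'
  obtain ⟨⟨d1, d2⟩, d3⟩ := hD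
  have d1' := Nat.eq_of_beq_eq_true hD'.1.1
  have key : ∀ a : ℕ, toMat (orbV k') = toMat a → idxT (canon a) = k + 1 → k = k' := by
    intro a ha hidx
    rw [← canon_eq_of_toMat ha, d1'] at hidx
    omega
  rcases F4_units c hc with rfl | rfl | rfl
  · rw [one_smul] at h
    exact key _ h (Nat.eq_of_beq_eq_true d1)
  · rw [← toMat_omul] at h
    exact key _ h (Nat.eq_of_beq_eq_true d2)
  · rw [← smul_smul, ← toMat_omul, ← toMat_omul] at h
    exact key _ h (Nat.eq_of_beq_eq_true d3)

theorem iso_cover (m : ℕ) (hm : m < 2 ^ 18) (h0 : m ≠ 0) (hw : oddW m = false) :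
    ∃ k < 43605, ∃ c : F4, c ≠ 0 ∧ toMat m = c • toMat (isoV k) := by
  have h := chkIC_all m hm
  simp only [chkIC, Bool.or_eq_true, Bool.and_eq_true, Nat.blt_eq] at h
  rcases h with (h | h) | ⟨⟨h1, h2⟩, h3⟩
  · exact absurd (Nat.eq_of_beq_eq_true h) h0
  · rw [hw] at h; exact absurd h (by simp)
  · obtain ⟨c, hc, hv⟩ := scal_spec h3
    refine ⟨Nat.pred (idxT m), ?_, c, hc, hv⟩
    have : Nat.pred (idxT m) = idxT m - 1 := rfl
    omega

/-! ### Statements about vectors -/

include hψ hx hy in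
/-- every image of the first basis vector is a multiple of a listed vector -/
theorem line_cover (g : 𝒢) (hg : g ∈ Hg x y) : ∃ k < 23256, ∃ c : F4, c ≠ 0 ∧
    Matrix.mulVec (ψ g) (Pi.single 0 1) = c • vecOf (orbV k) := by
  obtain ⟨k, hk, c, hc, hv⟩ := orb_cover hψ hx hy g hg
  refine ⟨k, hk, c, hc, ?_⟩
  apply Row_inj
  rw [Row_smul, ← toMat_row (orbV_lt k), ← hv, orbV_zero, toMat_row (by norm_num : 1 < 2 ^ 18),
    Row_mul_transpose, vecOf_one]

include hx hy in
/-- every listed vector is an image of the first basis vector -/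
theorem line_real (k : ℕ) (hk : k < 23256) : ∃ g ∈ Hg x y,
    Matrix.mulVec (ψ g) (Pi.single 0 1) = vecOf (orbV k) := by
  obtain ⟨g, hg, hv⟩ := orb_real hx hy k hk
  refine ⟨g, hg, ?_⟩
  apply Row_inj
  rw [← toMat_row (orbV_lt k), hv, orbV_zero, toMat_row (by norm_num : 1 < 2 ^ 18),
    Row_mul_transpose, vecOf_one]

/-- the listed vectors span distinct lines -/
theorem line_inj (k k' : ℕ) (hk : k < 23256) (hk' : k' < 23256) (c : F4) (hc : c ≠ 0)
    (h : vecOf (orbV k') = c • vecOf (orbV k)) : k = k' := by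
  apply orb_inj k k' hk hk' c hc
  rw [toMat_row (orbV_lt k'), toMat_row (orbV_lt k), h, Row_smul]

include hx hy in
/-- every nonzero isotropic vector is a multiple of an image of a fixed one -/
theorem iso_trans (u : Fin 9 → F4) (hu : u ≠ 0) (hiso : ∑ j : Fin 9, (u j) ^ 3 = 0) :
    ∃ g ∈ Hg x y, ∃ c : F4, c ≠ 0 ∧ u = c • Matrix.mulVec (ψ g) (vecOf 5) := by
  obtain ⟨m, hm, rfl⟩ := vecOf_surj u
  have h0 : m ≠ 0 := by
    rintro rfl
    exact hu vecOf_zero
  obtain ⟨k, hk, c, hc, hv⟩ := iso_cover m hm h0 (iso_spec m hiso)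
  obtain ⟨g, hg, hgv⟩ := iso_real hx hy k hk
  refine ⟨g, hg, c, hc, ?_⟩
  apply Row_inj
  rw [Row_smul, ← Row_mul_transpose, ← toMat_row (by norm_num : 5 < 2 ^ 18), ← isoV_zero, ← hgv,
    ← hv, toMat_row hm]

end

end Cfsg.Agent.Lib.Helper60.J3
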