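import Cfsg.Agent.Lib.Helper60.J3.LineData

/-! Checks for the orbit of the first basis vector (generated). -/

set_option autoImplicit false

namespace Cfsg.Agent.Lib.Helper60.J3

theorem XTp_eq : toMat XTp = (toMat Xp).transpose := by decide +kernel
theorem YTp_eq : toMat YTp = (toMat Yp).transpose := by decide +kernel
theorem orbV_zero : orbV 0 = 1 := by decide +kernel
theorem isoV_zero : isoV 0 = 5 := by decide +kernel
theorem chkOT_c_0 : allBelow (fun j => chkOT (Nat.add 0 j)) 4096 = true := by decide +kernel
theorem chkOT_c_1 : allBelow (fun j => chkOT (Nat.add 4096 j)) 4096 = true := by decide +kernel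
theorem chkOT_c_2 : allBelow (fun j => chkOT (Nat.add 8192 j)) 4096 = true := by decide +kernel
theorem chkOT_c_3 : allBelow (fun j => chkOT (Nat.add 12288 j)) 4096 = true := by decide +kernel
theorem chkOT_c_4 : allBelow (fun j => chkOT (Nat.add 16384 j)) 4096 = true := by decide +kernel
theorem chkOT_c_5 : allBelow (fun j => chkOT (Nat.add 20480 j)) 2775 = true := by decide +kernel
theorem chkOC_c_0 : allBelow (fun j => chkOC (Nat.add 0 j)) 4096 = true := by decide +kernel
theorem chkOC_c_1 : allBelow (fun j => chkOC (Nat.add 4096 j)) 4096 = true := by decide +kernel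
theorem chkOC_c_2 : allBelow (fun j => chkOC (Nat.add 8192 j)) 4096 = true := by decide +kernel
theorem chkOC_c_3 : allBelow (fun j => chkOC (Nat.add 12288 j)) 4096 = true := by decide +kernel
theorem chkOC_c_4 : allBelow (fun j => chkOC (Nat.add 16384 j)) 4096 = true := by decide +kernel
theorem chkOC_c_5 : allBelow (fun j => chkOC (Nat.add 20480 j)) 2776 = true := by decide +kernel

end Cfsg.Agent.Lib.Helper60.J3
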