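import Cfsg.Agent.Lib.Helper60.J3.LineData

/-! Checks for the isotropic lines (generated). -/

set_option autoImplicit false

namespace Cfsg.Agent.Lib.Helper60.J3

theorem chkIT_c_0 : allBelow (fun j => chkIT (Nat.add 0 j)) 4096 = true := by decide +kernel
theorem chkIT_c_1 : allBelow (fun j => chkIT (Nat.add 4096 j)) 4096 = true := by decide +kernel
theorem chkIT_c_2 : allBelow (fun j => chkIT (Nat.add 8192 j)) 4096 = true := by decide +kernel
theorem chkIT_c_3 : allBelow (fun j => chkIT (Nat.add 12288 j)) 4096 = true := by decide +kernel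
theorem chkIT_c_4 : allBelow (fun j => chkIT (Nat.add 16384 j)) 4096 = true := by decide +kernel
theorem chkIT_c_5 : allBelow (fun j => chkIT (Nat.add 20480 j)) 4096 = true := by decide +kernel
theorem chkIT_c_6 : allBelow (fun j => chkIT (Nat.add 24576 j)) 4096 = true := by decide +kernel
theorem chkIT_c_7 : allBelow (fun j => chkIT (Nat.add 28672 j)) 4096 = true := by decide +kernel
theorem chkIT_c_8 : allBelow (fun j => chkIT (Nat.add 32768 j)) 4096 = true := by decide +kernel
theorem chkIT_c_9 : allBelow (fun j => chkIT (Nat.add 36864 j)) 4096 = true := by decide +kernel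
theorem chkIT_c_10 : allBelow (fun j => chkIT (Nat.add 40960 j)) 2644 = true := by decide +kernel
theorem chkOD_c_0 : allBelow (fun j => chkOD (Nat.add 0 j)) 4096 = true := by decide +kernel
theorem chkOD_c_1 : allBelow (fun j => chkOD (Nat.add 4096 j)) 4096 = true := by decide +kernel
theorem chkOD_c_2 : allBelow (fun j => chkOD (Nat.add 8192 j)) 4096 = true := by decide +kernel
theorem chkOD_c_3 : allBelow (fun j => chkOD (Nat.add 12288 j)) 4096 = true := by decide +kernel
theorem chkOD_c_4 : allBelow (fun j => chkOD (Nat.add 16384 j)) 4096 = true := by decide +kernel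
theorem chkOD_c_5 : allBelow (fun j => chkOD (Nat.add 20480 j)) 2776 = true := by decide +kernel

end Cfsg.Agent.Lib.Helper60.J3
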