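import Cfsg.Agent.Lib.Helper60.J3.LineData

/-! Coverage of the isotropic vectors (generated). -/

set_option autoImplicit false

namespace Cfsg.Agent.Lib.Helper60.J3

theorem chkIC_c_8 : allBelow (fun j => chkIC (Nat.add 65536 j)) 8192 = true := by decide +kernel
theorem chkIC_c_9 : allBelow (fun j => chkIC (Nat.add 73728 j)) 8192 = true := by decide +kernel
theorem chkIC_c_10 : allBelow (fun j => chkIC (Nat.add 81920 j)) 8192 = true := by decide +kernel
theorem chkIC_c_11 : allBelow (fun j => chkIC (Nat.add 90112 j)) 8192 = true := by decide +kernel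
theorem chkIC_c_12 : allBelow (fun j => chkIC (Nat.add 98304 j)) 8192 = true := by decide +kernel
theorem chkIC_c_13 : allBelow (fun j => chkIC (Nat.add 106496 j)) 8192 = true := by decide +kernel
theorem chkIC_c_14 : allBelow (fun j => chkIC (Nat.add 114688 j)) 8192 = true := by decide +kernel
theorem chkIC_c_15 : allBelow (fun j => chkIC (Nat.add 122880 j)) 8192 = true := by decide +kernel

end Cfsg.Agent.Lib.Helper60.J3
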