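import Cfsg.Agent.Lib.Helper60.J3.LineData

/-! Coverage of the isotropic vectors (generated). -/

set_option autoImplicit false

namespace Cfsg.Agent.Lib.Helper60.J3

theorem chkIC_c_16 : allBelow (fun j => chkIC (Nat.add 131072 j)) 8192 = true := by decide +kernel
theorem chkIC_c_17 : allBelow (fun j => chkIC (Nat.add 139264 j)) 8192 = true := by decide +kernel
theorem chkIC_c_18 : allBelow (fun j => chkIC (Nat.add 147456 j)) 8192 = true := by decide +kernel
theorem chkIC_c_19 : allBelow (fun j => chkIC (Nat.add 155648 j)) 8192 = true := by decide +kernel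
theorem chkIC_c_20 : allBelow (fun j => chkIC (Nat.add 163840 j)) 8192 = true := by decide +kernel
theorem chkIC_c_21 : allBelow (fun j => chkIC (Nat.add 172032 j)) 8192 = true := by decide +kernel
theorem chkIC_c_22 : allBelow (fun j => chkIC (Nat.add 180224 j)) 8192 = true := by decide +kernel
theorem chkIC_c_23 : allBelow (fun j => chkIC (Nat.add 188416 j)) 8192 = true := by decide +kernel

end Cfsg.Agent.Lib.Helper60.J3
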