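import Cfsg.Agent.Lib.Helper60.J3.LineData

/-! Coverage of the isotropic vectors (generated). -/

set_option autoImplicit false

namespace Cfsg.Agent.Lib.Helper60.J3

theorem chkIC_c_24 : allBelow (fun j => chkIC (Nat.add 196608 j)) 8192 = true := by decide +kernel
theorem chkIC_c_25 : allBelow (fun j => chkIC (Nat.add 204800 j)) 8192 = true := by decide +kernel
theorem chkIC_c_26 : allBelow (fun j => chkIC (Nat.add 212992 j)) 8192 = true := by decide +kernel
theorem chkIC_c_27 : allBelow (fun j => chkIC (Nat.add 221184 j)) 8192 = true := by decide +kernel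
theorem chkIC_c_28 : allBelow (fun j => chkIC (Nat.add 229376 j)) 8192 = true := by decide +kernel
theorem chkIC_c_29 : allBelow (fun j => chkIC (Nat.add 237568 j)) 8192 = true := by decide +kernel
theorem chkIC_c_30 : allBelow (fun j => chkIC (Nat.add 245760 j)) 8192 = true := by decide +kernel
theorem chkIC_c_31 : allBelow (fun j => chkIC (Nat.add 253952 j)) 8192 = true := by decide +kernel

end Cfsg.Agent.Lib.Helper60.J3
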