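import Cfsg.Agent.Lib.Helper60.J3.Trans
import Cfsg.Agent.Lib.Helper60.J3.Line

/-!
The orbits of `Cfsg.Spor.threeJ3 F ω` on the lines of its 9-space, over an arbitrary field `F`
with four elements.
-/

set_option autoImplicit false

namespace Cfsg.Agent.Lib.Helper60.J3

open Matrix Cfsg.Spor
open scoped MatrixGroups

section
variable {F : Type*} [Field F]

/-- vectors over `F` indexed by `F9` as vectors over `F4` indexed by `Fin 9` -/
def Φv (φ : F ≃+* F4) (v : F9 → F) : Fin 9 → F4 := fun i => φ (v (e9.symm i))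

/-- the inverse map -/
def Φv' (φ : F ≃+* F4) (u : Fin 9 → F4) : F9 → F := fun z => φ.symm (u (e9 z))

theorem Φv_Φv' (φ : F ≃+* F4) (u : Fin 9 → F4) : Φv φ (Φv' φ u) = u := by
  funext i
  simp [Φv, Φv']

theorem Φv_inj (φ : F ≃+* F4) : Function.Injective (Φv φ) := by
  intro v w h
  funext z
  have := congrFun h (e9 z)
  simp only [Φv, Equiv.symm_apply_apply] at this
  exact φ.injective this

theorem Φv_smul (φ : F ≃+* F4) (c : F) (v : F9 → F) : Φv φ (c • v) = φ c • Φv φ v := by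
  funext i
  simp [Φv]

theorem Φv_zero (φ : F ≃+* F4) : Φv φ 0 = 0 := by
  funext i
  simp [Φv]

theorem Φv_mulVec (φ : F ≃+* F4) (g : GL F9 F) (v : F9 → F) :
    Φv φ ((g : Matrix F9 F9 F) *ᵥ v) = (ψM φ g) *ᵥ (Φv φ v) := by
  funext i
  simp only [Φv, Matrix.mulVec, dotProduct, ψM_apply, ΦM_apply, map_sum, map_mul]
  exact (Equiv.sum_comp e9.symm
    (fun z => φ ((g : Matrix F9 F9 F) (e9.symm i) z) * φ (v z))).symm

theorem Φv_single (φ : F ≃+* F4) : Φv φ (Pi.single (0 : F9) (1 : F)) = Pi.single 0 1 := by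
  funext i
  have key : (e9.symm i = 0) ↔ (i = 0) := by rw [Equiv.symm_apply_eq, e9_zero]
  simp only [Φv, Pi.single_apply, key]
  split_ifs <;> simp

theorem Φv_iso (φ : F ≃+* F4) (v : F9 → F) (h : ∑ z, (v z) ^ 3 = 0) :
    ∑ j, (Φv φ v j) ^ 3 = 0 := by
  have e : ∑ j, (Φv φ v j) ^ 3 = φ (∑ z, (v z) ^ 3) := by
    rw [map_sum]
    simp only [Φv, map_pow]
    exact Equiv.sum_comp e9.symm (fun z => φ (v z) ^ 3)
  rw [e, h, map_zero]

/-- the isotropic lines form one orbit -/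
theorem iso_lines_trans [Fintype F] (hF : Fintype.card F = 4) (ω : F) (hω : ω ^ 2 + ω + 1 = 0)
    (v w : F9 → F) (hv : v ≠ 0) (hw : w ≠ 0) (hvi : ∑ z, (v z) ^ 3 = 0)
    (hwi : ∑ z, (w z) ^ 3 = 0) :
    ∃ g ∈ threeJ3 F ω, ∃ c : F, c ≠ 0 ∧ (g : Matrix F9 F9 F) *ᵥ v = c • w := by
  obtain ⟨φ, hφ⟩ := exists_iso hF ω hω
  rw [threeJ3_eq φ ω hφ]
  have hne : ∀ u : F9 → F, u ≠ 0 → Φv φ u ≠ 0 := by
    intro u hu h
    apply hu
    apply Φv_inj φ
    rw [h, Φv_zero]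
  obtain ⟨g1, hg1, c1, hc1, h1⟩ :=
    iso_trans (ψM_xT φ) (ψM_yT φ) (Φv φ v) (hne v hv) (Φv_iso φ v hvi)
  obtain ⟨g2, hg2, c2, hc2, h2⟩ :=
    iso_trans (ψM_xT φ) (ψM_yT φ) (Φv φ w) (hne w hw) (Φv_iso φ w hwi)
  refine ⟨g2 * g1⁻¹, Subgroup.mul_mem _ hg2 (Subgroup.inv_mem _ hg1), φ.symm (c1 * c2⁻¹), ?_, ?_⟩
  · exact (map_ne_zero φ.symm).mpr (mul_ne_zero hc1 (inv_ne_zero hc2))
  · apply Φv_inj φ
    rw [Φv_mulVec, Φv_smul, RingEquiv.apply_symm_apply, h1, h2, Matrix.mulVec_smul,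
      Matrix.mulVec_mulVec, ← map_mul, inv_mul_cancel_right, smul_smul, mul_assoc,
      inv_mul_cancel₀ hc2, mul_one]

/-- the line through the first basis vector has exactly 23256 images -/
theorem line_orbit_card [Fintype F] (hF : Fintype.card F = 4) (ω : F) (hω : ω ^ 2 + ω + 1 = 0) :
    {L : Submodule F (F9 → F) | ∃ g ∈ threeJ3 F ω,
      L = F ∙ ((g : Matrix F9 F9 F) *ᵥ (Pi.single (0 : F9) (1 : F) : F9 → F))}.ncard = 23256 := by
  obtain ⟨φ, hφ⟩ := exists_iso hF ω hω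
  rw [threeJ3_eq φ ω hφ]
  let f : Fin 23256 → Submodule F (F9 → F) := fun k => F ∙ Φv' φ (vecOf (orbV k.val))
  have hf : Function.Injective f := by
    intro a b hab
    obtain ⟨z, hz⟩ := Submodule.span_singleton_eq_span_singleton.mp hab
    have h2 := congrArg (Φv φ) hz
    rw [Units.smul_def, Φv_smul, Φv_Φv', Φv_Φv'] at h2
    exact Fin.ext (line_inj a.val b.val a.isLt b.isLt (φ (z : F))
      ((map_ne_zero φ).mpr z.ne_zero) h2.symm)
  have hS : {L : Submodule F (F9 → F) | ∃ g ∈ Hg (xT φ) (yT φ),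
      L = F ∙ ((g : Matrix F9 F9 F) *ᵥ (Pi.single (0 : F9) (1 : F) : F9 → F))} = f '' Set.univ := by
    ext L
    constructor
    · rintro ⟨g, hg, rfl⟩
      obtain ⟨k, hk, c, hc, hv⟩ := line_cover (ψM_inj φ) (ψM_xT φ) (ψM_yT φ) g hg
      refine ⟨⟨k, hk⟩, Set.mem_univ _, ?_⟩
      have e : (g : Matrix F9 F9 F) *ᵥ (Pi.single (0 : F9) (1 : F) : F9 → F) =
          φ.symm c • Φv' φ (vecOf (orbV k)) := by
        apply Φv_inj φ
        rw [Φv_mulVec, Φv_single, hv, Φv_smul, RingEquiv.apply_symm_apply, Φv_Φv']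
      rw [e]
      exact (Submodule.span_singleton_smul_eq
        (IsUnit.mk0 _ ((map_ne_zero φ.symm).mpr hc)) _).symm
    · rintro ⟨k, -, rfl⟩
      obtain ⟨g, hg, hv⟩ := line_real (ψM_xT φ) (ψM_yT φ) k.val k.isLt
      refine ⟨g, hg, ?_⟩
      have e : (g : Matrix F9 F9 F) *ᵥ (Pi.single (0 : F9) (1 : F) : F9 → F) =
          Φv' φ (vecOf (orbV k.val)) := by
        apply Φv_inj φ
        rw [Φv_mulVec, Φv_single, hv, Φv_Φv']
      rw [e]
  rw [hS, Set.ncard_image_of_injective _ hf, Set.ncard_univ, Nat.card_fin]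

end

end Cfsg.Agent.Lib.Helper60.J3
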